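import Mathlib

/-! Collection formula `(xy)^n = x^n y^n c^{C(n,2)} d^{C(n,3)} e^{C(n,2)+2C(n,3)}` in class ≤ 3. -/

set_option autoImplicit false

namespace Cfsg.Agent.Lib.Helper22.Class3

variable {G : Type*} [Group G]

/-- central element -/
def Cen (z : G) : Prop := ∀ g : G, z * g = g * z

theorem Cen.mul {z w : G} (hz : Cen z) (hw : Cen w) : Cen (z * w) := by
  intro g
  rw [mul_assoc, hw g, ← mul_assoc, hz g, mul_assoc]

theorem Cen.pow {z : G} (hz : Cen z) (n : ℕ) : Cen (z ^ n) := by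
  induction n with
  | zero => intro g; simp
  | succ n ih => rw [pow_succ]; exact ih.mul hz

/-- relations between `x`, `y`, `c = [y,x]`, `d = [c,x]`, `e = [c,y]`. -/
structure Rel (x y c d e : G) : Prop where
  yx : y * x = x * y * c
  cx : c * x = x * c * d
  cy : c * y = y * c * e
  dc : Cen d
  ec : Cen e

variable {x y c d e : G}

theorem Rel.cpow_x (h : Rel x y c d e) (m : ℕ) : c ^ m * x = x * c ^ m * d ^ m := by
  induction m with
  | zero => simp
  | succ m ih =>
    calc c ^ (m+1) * x = c ^ m * (c * x) := by rw [pow_succ, mul_assoc]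
      _ = c ^ m * (x * c * d) := by rw [h.cx]
      _ = (c ^ m * x) * c * d := by simp only [mul_assoc]
      _ = x * c ^ m * d ^ m * c * d := by rw [ih]
      _ = x * c ^ m * (d ^ m * c) * d := by simp only [mul_assoc]
      _ = x * c ^ m * (c * d ^ m) * d := by rw [(h.dc.pow m) c]
      _ = x * c ^ (m+1) * d ^ (m+1) := by rw [pow_succ, pow_succ]; simp only [mul_assoc]

theorem Rel.cpow_y (h : Rel x y c d e) (m : ℕ) : c ^ m * y = y * c ^ m * e ^ m := by
  induction m with
  | zero => simp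
  | succ m ih =>
    calc c ^ (m+1) * y = c ^ m * (c * y) := by rw [pow_succ, mul_assoc]
      _ = c ^ m * (y * c * e) := by rw [h.cy]
      _ = (c ^ m * y) * c * e := by simp only [mul_assoc]
      _ = y * c ^ m * e ^ m * c * e := by rw [ih]
      _ = y * c ^ m * (e ^ m * c) * e := by simp only [mul_assoc]
      _ = y * c ^ m * (c * e ^ m) * e := by rw [(h.ec.pow m) c]
      _ = y * c ^ (m+1) * e ^ (m+1) := by rw [pow_succ, pow_succ]; simp only [mul_assoc]

theorem Rel.c_xpow (h : Rel x y c d e) (k : ℕ) : c * x ^ k = x ^ k * c * d ^ k := by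
  induction k with
  | zero => simp
  | succ k ih =>
    calc c * x ^ (k+1) = (c * x ^ k) * x := by rw [pow_succ, mul_assoc]
      _ = x ^ k * c * d ^ k * x := by rw [ih]
      _ = x ^ k * c * (d ^ k * x) := by simp only [mul_assoc]
      _ = x ^ k * c * (x * d ^ k) := by rw [(h.dc.pow k) x]
      _ = x ^ k * (c * x) * d ^ k := by simp only [mul_assoc]
      _ = x ^ k * (x * c * d) * d ^ k := by rw [h.cx]
      _ = x ^ k * x * c * (d * d ^ k) := by simp only [mul_assoc]
      _ = x ^ (k+1) * c * d ^ (k+1) := by rw [← pow_succ, ← pow_succ']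

theorem Rel.c_ypow (h : Rel x y c d e) (k : ℕ) : c * y ^ k = y ^ k * c * e ^ k := by
  induction k with
  | zero => simp
  | succ k ih =>
    calc c * y ^ (k+1) = (c * y ^ k) * y := by rw [pow_succ, mul_assoc]
      _ = y ^ k * c * e ^ k * y := by rw [ih]
      _ = y ^ k * c * (e ^ k * y) := by simp only [mul_assoc]
      _ = y ^ k * c * (y * e ^ k) := by rw [(h.ec.pow k) y]
      _ = y ^ k * (c * y) * e ^ k := by simp only [mul_assoc]
      _ = y ^ k * (y * c * e) * e ^ k := by rw [h.cy]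
      _ = y ^ k * y * c * (e * e ^ k) := by simp only [mul_assoc]
      _ = y ^ (k+1) * c * e ^ (k+1) := by rw [← pow_succ, ← pow_succ']

theorem Rel.ypow_x (h : Rel x y c d e) (j : ℕ) :
    y ^ j * x = x * y ^ j * c ^ j * e ^ (j.choose 2) := by
  induction j with
  | zero => simp
  | succ j ih =>
    have hch : (j+1).choose 2 = j + j.choose 2 := by
      rw [Nat.choose_succ_succ' j 1, Nat.choose_one_right]
    calc y ^ (j+1) * x = y * (y ^ j * x) := by rw [pow_succ', mul_assoc]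
      _ = y * (x * y ^ j * c ^ j * e ^ (j.choose 2)) := by rw [ih]
      _ = (y * x) * y ^ j * c ^ j * e ^ (j.choose 2) := by simp only [mul_assoc]
      _ = x * y * c * y ^ j * c ^ j * e ^ (j.choose 2) := by rw [h.yx]
      _ = x * y * (c * y ^ j) * c ^ j * e ^ (j.choose 2) := by simp only [mul_assoc]
      _ = x * y * (y ^ j * c * e ^ j) * c ^ j * e ^ (j.choose 2) := by rw [h.c_ypow]
      _ = x * (y * y ^ j) * c * (e ^ j * c ^ j) * e ^ (j.choose 2) := by simp only [mul_assoc]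
      _ = x * (y * y ^ j) * c * (c ^ j * e ^ j) * e ^ (j.choose 2) := by rw [(h.ec.pow j) (c ^ j)]
      _ = x * (y * y ^ j) * (c * c ^ j) * (e ^ j * e ^ (j.choose 2)) := by simp only [mul_assoc]
      _ = x * y ^ (j+1) * c ^ (j+1) * e ^ ((j+1).choose 2) := by
          rw [← pow_succ', ← pow_succ', ← pow_add, hch]

theorem Rel.mul_pow (h : Rel x y c d e) (n : ℕ) :
    (x * y) ^ n = x ^ n * y ^ n * c ^ (n.choose 2) *
      (d ^ (n.choose 3) * e ^ (n.choose 2 + 2 * n.choose 3)) := by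
  induction n with
  | zero => simp
  | succ n ih =>
    set A := n.choose 2 with hA
    set B := n.choose 3 with hB
    have hch2 : (n+1).choose 2 = n + A := by
      rw [Nat.choose_succ_succ' n 1, Nat.choose_one_right]
    have hch3 : (n+1).choose 3 = A + B := by
      rw [Nat.choose_succ_succ' n 2]
    set z₁ := d ^ B * e ^ (A + 2 * B) with hz₁
    have cz₁ : Cen z₁ := (h.dc.pow B).mul (h.ec.pow _)
    calc (x * y) ^ (n+1) = (x * y) ^ n * (x * y) := pow_succ _ _
      _ = x ^ n * y ^ n * c ^ A * z₁ * (x * y) := by rw [ih]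
      _ = x ^ n * y ^ n * c ^ A * (z₁ * (x * y)) := by simp only [mul_assoc]
      _ = x ^ n * y ^ n * c ^ A * ((x * y) * z₁) := by rw [cz₁ (x * y)]
      _ = x ^ n * y ^ n * (c ^ A * x) * y * z₁ := by simp only [mul_assoc]
      _ = x ^ n * y ^ n * (x * c ^ A * d ^ A) * y * z₁ := by rw [h.cpow_x]
      _ = x ^ n * (y ^ n * x) * c ^ A * (d ^ A * y) * z₁ := by simp only [mul_assoc]
      _ = x ^ n * (x * y ^ n * c ^ n * e ^ A) * c ^ A * (y * d ^ A) * z₁ := by
          rw [h.ypow_x, (h.dc.pow A) y]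
      _ = x ^ n * x * y ^ n * c ^ n * (e ^ A * (c ^ A * y)) * d ^ A * z₁ := by simp only [mul_assoc]
      _ = x ^ n * x * y ^ n * c ^ n * ((c ^ A * y) * e ^ A) * d ^ A * z₁ := by
          rw [(h.ec.pow A) (c ^ A * y)]
      _ = x ^ n * x * y ^ n * (c ^ n * c ^ A * y) * e ^ A * d ^ A * z₁ := by simp only [mul_assoc]
      _ = x ^ n * x * y ^ n * (y * c ^ (n + A) * e ^ (n + A)) * e ^ A * d ^ A * z₁ := by
          rw [← pow_add, h.cpow_y]
      _ = (x ^ n * x) * (y ^ n * y) * c ^ (n + A) * (e ^ (n + A) * e ^ A * d ^ A * (d ^ B * e ^ (A + 2 * B))) := by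
          simp only [mul_assoc, hz₁]
      _ = (x ^ n * x) * (y ^ n * y) * c ^ (n + A) * (d ^ A * (e ^ (n + A) * e ^ A) * (d ^ B * e ^ (A + 2 * B))) := by
          rw [(h.dc.pow A) (e ^ (n + A) * e ^ A)]
      _ = (x ^ n * x) * (y ^ n * y) * c ^ (n + A) * (d ^ A * ((e ^ (n + A) * e ^ A) * d ^ B) * e ^ (A + 2 * B)) := by
          simp only [mul_assoc]
      _ = (x ^ n * x) * (y ^ n * y) * c ^ (n + A) * (d ^ A * (d ^ B * (e ^ (n + A) * e ^ A)) * e ^ (A + 2 * B)) := by
          rw [(h.dc.pow B) (e ^ (n + A) * e ^ A)]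
      _ = (x ^ n * x) * (y ^ n * y) * c ^ (n + A) * ((d ^ A * d ^ B) * (e ^ (n + A) * e ^ A * e ^ (A + 2 * B))) := by
          simp only [mul_assoc]
      _ = x ^ (n+1) * y ^ (n+1) * c ^ ((n+1).choose 2) *
            (d ^ ((n+1).choose 3) * e ^ ((n+1).choose 2 + 2 * (n+1).choose 3)) := by
          rw [← pow_succ, ← pow_succ, ← pow_add, ← pow_add, ← pow_add, hch2, hch3]
          congr 3
          ring

theorem cen_of_mem {R : Type*} [Group R]
    (hcl : ⁅⁅commutator R, (⊤ : Subgroup R)⁆, (⊤ : Subgroup R)⁆ = ⊥) {z : R}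
    (hz : z ∈ ⁅commutator R, (⊤ : Subgroup R)⁆) : Cen z := by
  intro g
  have h1 := Subgroup.commutator_mem_commutator hz (Subgroup.mem_top g)
  rw [hcl, Subgroup.mem_bot, commutatorElement_def] at h1
  have : z * g = (z * g * z⁻¹ * g⁻¹) * (g * z) := by group
  rw [this, h1, one_mul]

theorem rel_of_class3 {R : Type*} [Group R]
    (hcl : ⁅⁅commutator R, (⊤ : Subgroup R)⁆, (⊤ : Subgroup R)⁆ = ⊥) (x y : R) :
    ∃ c d e : R, Rel x y c d e ∧ c ∈ commutator R ∧
      d ∈ ⁅commutator R, (⊤ : Subgroup R)⁆ ∧ e ∈ ⁅commutator R, (⊤ : Subgroup R)⁆ := by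
  have hc : y⁻¹ * x⁻¹ * y * x ∈ commutator R := by
    have := Subgroup.commutator_mem_commutator (Subgroup.mem_top y⁻¹) (Subgroup.mem_top x⁻¹)
    rw [commutatorElement_def] at this
    rw [commutator_def]
    simpa using this
  set c := y⁻¹ * x⁻¹ * y * x with hcdef
  have hd : c⁻¹ * x⁻¹ * c * x ∈ ⁅commutator R, (⊤ : Subgroup R)⁆ := by
    have := Subgroup.commutator_mem_commutator ((commutator R).inv_mem hc) (Subgroup.mem_top x⁻¹)
    rw [commutatorElement_def] at this
    simpa using this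
  have he : c⁻¹ * y⁻¹ * c * y ∈ ⁅commutator R, (⊤ : Subgroup R)⁆ := by
    have := Subgroup.commutator_mem_commutator ((commutator R).inv_mem hc) (Subgroup.mem_top y⁻¹)
    rw [commutatorElement_def] at this
    simpa using this
  refine ⟨c, c⁻¹ * x⁻¹ * c * x, c⁻¹ * y⁻¹ * c * y, ⟨?_, ?_, ?_, cen_of_mem hcl hd, cen_of_mem hcl he⟩,
    hc, hd, he⟩
  · rw [hcdef]; group
  · group
  · group

theorem pow_eq_one_of_dvd {R : Type*} [Group R] {z : R} {p m : ℕ} (h : z ^ p = 1) (hd : p ∣ m) :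
    z ^ m = 1 := by
  obtain ⟨k, rfl⟩ := hd
  rw [pow_mul, h, one_pow]

end Cfsg.Agent.Lib.Helper22.Class3
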